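import Mathlib
import Cfsg.Prelude.Def_Classical

/-!
The field with nine elements on codes `a + 3 b` for `a + b i`, and four-dimensional vectors and matrices over it.
-/

set_option autoImplicit false

namespace CfsgLib.McLU43

open Matrix

/-- Sum of codes. -/
def addC (x y : ℕ) : ℕ := (x % 3 + y % 3) % 3 + 3 * ((x / 3 + y / 3) % 3)
/-- Product of codes. -/
def mulC (x y : ℕ) : ℕ :=
  (x % 3 * (y % 3) + 2 * (x / 3 * (y / 3))) % 3 + 3 * ((x % 3 * (y / 3) + x / 3 * (y % 3)) % 3)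
/-- Conjugate of a code. -/
def cjC (x : ℕ) : ℕ := x % 3 + 3 * ((2 * (x / 3)) % 3)
/-- Negative of a code. -/
def negC (x : ℕ) : ℕ := (2 * (x % 3)) % 3 + 3 * ((2 * (x / 3)) % 3)

/-- Four codes. -/
abbrev V4 := ℕ × ℕ × ℕ × ℕ
/-- Four rows. -/
abbrev M4 := V4 × V4 × V4 × V4

/-- Dot product. -/
def dotC (u v : V4) : ℕ :=
  addC (addC (mulC u.1 v.1) (mulC u.2.1 v.2.1)) (addC (mulC u.2.2.1 v.2.2.1) (mulC u.2.2.2 v.2.2.2))
/-- Entrywise conjugate. -/
def cjV (v : V4) : V4 := (cjC v.1, cjC v.2.1, cjC v.2.2.1, cjC v.2.2.2)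
/-- The Hermitian form. -/
def hermC (u v : V4) : ℕ := dotC u (cjV v)
/-- Matrix times vector. -/
def mvC (A : M4) (v : V4) : V4 := (dotC A.1 v, dotC A.2.1 v, dotC A.2.2.1 v, dotC A.2.2.2 v)
/-- Scalar times vector. -/
def smulV (c : ℕ) (v : V4) : V4 := (mulC c v.1, mulC c v.2.1, mulC c v.2.2.1, mulC c v.2.2.2)
/-- A three by three minor. -/
def det3 (a b c d e f g h i : ℕ) : ℕ :=
  addC (addC (mulC a (addC (mulC e i) (negC (mulC f h)))) (negC (mulC b (addC (mulC d i) (negC (mulC f g))))))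
    (mulC c (addC (mulC d h) (negC (mulC e g))))
/-- The determinant. -/
def detC (A : M4) : ℕ :=
  let r := A.1; let s := A.2.1; let t := A.2.2.1; let u := A.2.2.2
  addC
    (addC (mulC r.1 (det3 s.2.1 s.2.2.1 s.2.2.2 t.2.1 t.2.2.1 t.2.2.2 u.2.1 u.2.2.1 u.2.2.2))
      (negC (mulC r.2.1 (det3 s.1 s.2.2.1 s.2.2.2 t.1 t.2.2.1 t.2.2.2 u.1 u.2.2.1 u.2.2.2))))
    (addC (mulC r.2.2.1 (det3 s.1 s.2.1 s.2.2.2 t.1 t.2.1 t.2.2.2 u.1 u.2.1 u.2.2.2))
      (negC (mulC r.2.2.2 (det3 s.1 s.2.1 s.2.2.1 t.1 t.2.1 t.2.2.1 u.1 u.2.1 u.2.2.1))))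
/-- The columns. -/
def colC (A : M4) : List V4 :=
  [(A.1.1, A.2.1.1, A.2.2.1.1, A.2.2.2.1), (A.1.2.1, A.2.1.2.1, A.2.2.1.2.1, A.2.2.2.2.1),
   (A.1.2.2.1, A.2.1.2.2.1, A.2.2.1.2.2.1, A.2.2.2.2.2.1), (A.1.2.2.2, A.2.1.2.2.2, A.2.2.1.2.2.2, A.2.2.2.2.2.2)]
/-- Unitary of determinant one. -/
def isSU (A : M4) : Bool :=
  detC A == 1 && (List.range 4).all fun i => (List.range 4).all fun j =>
    hermC ((colC A).getD i (0, 0, 0, 0)) ((colC A).getD j (0, 0, 0, 0)) == (if i == j then 1 else 0)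
/-- All codes below nine. -/
def okV (v : V4) : Bool := v.1 < 9 && v.2.1 < 9 && v.2.2.1 < 9 && v.2.2.2 < 9
/-- The number of a vector. -/
def encV (v : V4) : ℕ := v.1 + 9 * v.2.1 + 81 * v.2.2.1 + 729 * v.2.2.2
/-- The vector of a number. -/
def decV (n : ℕ) : V4 := (n % 9, n / 9 % 9, n / 81 % 9, n / 729 % 9)

/-- A square root of minus one, in characteristic three. -/
structure Root (F : Type*) [Field F] [Fintype F] where
  r : F
  sq : r * r = -1
  three : (3 : F) = 0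
  card : Fintype.card F = 9

variable {F : Type*} [Field F] [Fintype F]

theorem nonempty_root (hF : Fintype.card F = 9) : Nonempty (Root F) := by
  obtain ⟨r, hr⟩ : IsSquare (-1 : F) := FiniteField.isSquare_neg_one_iff.2 (by rw [hF]; decide)
  refine ⟨⟨r, hr.symm, ?_, hF⟩⟩
  have h9 : ((9 : ℕ) : F) = 0 := hF ▸ Nat.cast_card_eq_zero F
  have : (3 : F) * 3 = 0 := by norm_num at h9 ⊢; exact h9
  exact mul_self_eq_zero.1 this

variable (R : Root F)

/-- The field element of a code. -/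
def φ (x : ℕ) : F := ((x % 3 : ℕ) : F) + ((x / 3 : ℕ) : F) * R.r

theorem char_three (_R : Root F) : CharP F 3 := by
  obtain ⟨p, hp⟩ := CharP.exists F
  have h3 : ((3 : ℕ) : F) = 0 := by exact_mod_cast _R.three
  have hd := (CharP.cast_eq_zero_iff F p 3).1 h3
  rcases (Nat.dvd_prime Nat.prime_three).1 hd with rfl | rfl
  · exact absurd rfl (CharP.char_ne_one F 1)
  · exact hp

theorem cast_mod (R : Root F) (n : ℕ) : ((n % 3 : ℕ) : F) = (n : F) := by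
  haveI := char_three R
  exact (CharP.natCast_eq_natCast F 3).2 (Nat.mod_modEq n 3)

theorem φ_zero : φ R 0 = 0 := by simp [φ]
theorem φ_one : φ R 1 = 1 := by simp [φ]

theorem φ_mk (a b : ℕ) : φ R (a % 3 + 3 * (b % 3)) = (a : F) + (b : F) * R.r := by
  rw [φ, show (a % 3 + 3 * (b % 3)) % 3 = a % 3 by omega, show (a % 3 + 3 * (b % 3)) / 3 = b % 3 by omega,
    cast_mod R, cast_mod R]

theorem φ_addC (x y : ℕ) : φ R (addC x y) = φ R x + φ R y := by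
  rw [addC, φ_mk, φ, φ]
  push_cast
  ring

theorem φ_mulC (x y : ℕ) : φ R (mulC x y) = φ R x * φ R y := by
  rw [mulC, φ_mk, φ, φ]
  push_cast
  linear_combination (-(((x / 3 : ℕ) : F) * ((y / 3 : ℕ) : F))) * R.sq +
    (((x / 3 : ℕ) : F) * ((y / 3 : ℕ) : F)) * R.three

theorem φ_negC (x : ℕ) : φ R (negC x) = -φ R x := by
  rw [negC, φ_mk, φ]
  push_cast
  linear_combination (((x % 3 : ℕ) : F) + ((x / 3 : ℕ) : F) * R.r) * R.three

theorem cast_cube (R : Root F) (a : ℕ) : (a : F) ^ 3 = a := by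
  rw [← cast_mod R a]
  have : a % 3 < 3 := Nat.mod_lt _ (by norm_num)
  rcases (by omega : a % 3 = 0 ∨ a % 3 = 1 ∨ a % 3 = 2) with h | h | h <;> rw [h] <;> norm_num
  linear_combination 2 * R.three

theorem φ_cjC (x : ℕ) : φ R (cjC x) = φ R x ^ 3 := by
  rw [cjC, φ, φ, show (x % 3 + 3 * (2 * (x / 3) % 3)) % 3 = x % 3 by omega,
    show (x % 3 + 3 * (2 * (x / 3) % 3)) / 3 = 2 * (x / 3) % 3 by omega, cast_mod R (2 * _)]
  have h1 := cast_cube R (x % 3)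
  have h2 := cast_cube R (x / 3)
  push_cast
  set a : F := ((x % 3 : ℕ) : F)
  set b : F := ((x / 3 : ℕ) : F)
  linear_combination -h1 + R.r * h2 - b ^ 3 * R.r * R.sq + (b * R.r - a ^ 2 * (b * R.r) - a * (b * R.r) ^ 2) * R.three

theorem φ_inj {x y : ℕ} (hx : x < 9) (hy : y < 9) (h : φ R x = φ R y) : x = y := by
  have key : ∀ x < 9, ∀ y < 9, x ≠ y → ∃ z < 9, mulC (addC x (negC y)) z = 1 := by decide +kernel
  by_contra hne
  obtain ⟨z, -, hz⟩ := key x hx y hy hne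
  have := congrArg (φ R) hz
  rw [φ_mulC, φ_addC, φ_negC, h, add_neg_cancel, zero_mul, φ_one] at this
  exact zero_ne_one this

theorem φ_surj (x : F) : ∃ c < 9, φ R c = x := by
  have hb : Function.Bijective fun c : Fin 9 => φ R c.1 :=
    (Fintype.bijective_iff_injective_and_card _).2
      ⟨fun a b h => Fin.ext (φ_inj R a.2 b.2 h), by rw [Fintype.card_fin, R.card]⟩
  obtain ⟨c, hc⟩ := hb.2 x
  exact ⟨c.1, c.2, hc⟩

/-- Vectors. -/
def φv (v : V4) : Fin 4 → F := ![φ R v.1, φ R v.2.1, φ R v.2.2.1, φ R v.2.2.2]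

/-- Matrices. -/
def φm (A : M4) : Matrix (Fin 4) (Fin 4) F :=
  Matrix.of ![φv R A.1, φv R A.2.1, φv R A.2.2.1, φv R A.2.2.2]

theorem φ_hermC (u v : V4) : φ R (hermC u v) = Cfsg.hermForm 4 F 3 (φv R u) (φv R v) := by
  simp [hermC, dotC, cjV, φv, Cfsg.hermForm, Fin.sum_univ_four, φ_addC, φ_mulC, φ_cjC]
  ring

theorem φv_mvC (A : M4) (v : V4) : φv R (mvC A v) = φm R A *ᵥ φv R v := by
  funext i
  fin_cases i <;>
    simp [φm, mvC, dotC, φv, Matrix.mulVec, dotProduct, Fin.sum_univ_four, φ_addC, φ_mulC] <;> ring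

theorem φv_smulV (c : ℕ) (v : V4) : φv R (smulV c v) = φ R c • φv R v := by
  funext i
  fin_cases i <;> simp [smulV, φv, φ_mulC]

theorem φv_surj (x : Fin 4 → F) : ∃ v : V4, okV v = true ∧ φv R v = x := by
  obtain ⟨a, ha, ha'⟩ := φ_surj R (x 0)
  obtain ⟨b, hb, hb'⟩ := φ_surj R (x 1)
  obtain ⟨c, hc, hc'⟩ := φ_surj R (x 2)
  obtain ⟨d, hd, hd'⟩ := φ_surj R (x 3)
  refine ⟨(a, b, c, d), by simp [okV, ha, hb, hc, hd], funext fun i => ?_⟩
  fin_cases i <;> simp [φv, ha', hb', hc', hd']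

theorem φv_inj {u v : V4} (hu : okV u = true) (hv : okV v = true) (h : φv R u = φv R v) : u = v := by
  simp only [okV, Bool.and_eq_true, decide_eq_true_eq] at hu hv
  refine Prod.ext ?_ (Prod.ext ?_ (Prod.ext ?_ ?_))
  · exact φ_inj R hu.1.1.1 hv.1.1.1 (congrFun h 0)
  · exact φ_inj R hu.1.1.2 hv.1.1.2 (congrFun h 1)
  · exact φ_inj R hu.1.2 hv.1.2 (congrFun h 2)
  · exact φ_inj R hu.2 hv.2 (congrFun h 3)

theorem φv_decV (n : ℕ) (hn : n < 6561) : encV (decV n) = n := by simp only [encV, decV]; omega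

theorem decV_encV {v : V4} (h : okV v = true) : encV v < 6561 ∧ decV (encV v) = v := by
  simp only [okV, Bool.and_eq_true, decide_eq_true_eq] at h
  obtain ⟨a, b, c, d⟩ := v
  simp only [encV, decV, Prod.mk.injEq] at h ⊢
  omega

theorem φm_det (A : M4) : (φm R A).det = φ R (detC A) := by
  simp [φm, φv, detC, det3, Matrix.det_succ_row_zero, Fin.sum_univ_succ, φ_addC, φ_mulC, φ_negC, Fin.succAbove]
  ring

theorem φm_SU {A : M4} (h : isSU A = true) :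
    ∃ g : Cfsg.SU 4 F 3, (g.1.1 : Matrix (Fin 4) (Fin 4) F) = φm R A := by
  simp only [isSU, Bool.and_eq_true, beq_iff_eq, List.all_eq_true, List.mem_range] at h
  obtain ⟨hd, hh⟩ := h
  refine ⟨⟨⟨φm R A, by rw [φm_det, hd, φ_one]⟩, fun x y => ?_⟩, rfl⟩
  have hcol : ∀ i j : Fin 4,
      φm R A 0 i * φm R A 0 j ^ 3 + φm R A 1 i * φm R A 1 j ^ 3 + φm R A 2 i * φm R A 2 j ^ 3 +
        φm R A 3 i * φm R A 3 j ^ 3 = if i = j then 1 else 0 := by
    intro i j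
    have h1 := congrArg (φ R) (hh i.val i.isLt j.val j.isLt)
    rw [φ_hermC] at h1
    fin_cases i <;> fin_cases j <;>
      simpa [φm, φv, colC, Cfsg.hermForm, Fin.sum_univ_four, φ_one, φ_zero] using h1
  haveI := char_three R
  haveI : Fact (Nat.Prime 3) := ⟨Nat.prime_three⟩
  show Cfsg.hermForm 4 F 3 (φm R A *ᵥ x) (φm R A *ᵥ y) = Cfsg.hermForm 4 F 3 x y
  simp only [Cfsg.hermForm, Matrix.mulVec, dotProduct, Fin.sum_univ_four, add_pow_char, mul_pow]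
  have h00 := hcol 0 0; have h01 := hcol 0 1; have h02 := hcol 0 2; have h03 := hcol 0 3
  have h10 := hcol 1 0; have h11 := hcol 1 1; have h12 := hcol 1 2; have h13 := hcol 1 3
  have h20 := hcol 2 0; have h21 := hcol 2 1; have h22 := hcol 2 2; have h23 := hcol 2 3
  have h30 := hcol 3 0; have h31 := hcol 3 1; have h32 := hcol 3 2; have h33 := hcol 3 3
  simp only [Fin.reduceEq, if_false, if_true] at h00 h01 h02 h03 h10 h11 h12 h13 h20 h21 h22 h23 h30 h31 h32 h33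
  linear_combination x 0 * y 0 ^ 3 * h00 + x 0 * y 1 ^ 3 * h01 + x 0 * y 2 ^ 3 * h02 + x 0 * y 3 ^ 3 * h03 +
    x 1 * y 0 ^ 3 * h10 + x 1 * y 1 ^ 3 * h11 + x 1 * y 2 ^ 3 * h12 + x 1 * y 3 ^ 3 * h13 +
    x 2 * y 0 ^ 3 * h20 + x 2 * y 1 ^ 3 * h21 + x 2 * y 2 ^ 3 * h22 + x 2 * y 3 ^ 3 * h23 +
    x 3 * y 0 ^ 3 * h30 + x 3 * y 1 ^ 3 * h31 + x 3 * y 2 ^ 3 * h32 + x 3 * y 3 ^ 3 * h33

end CfsgLib.McLU43
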