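import Cfsg.Agent.McLFus.CentCheck
import Cfsg.Agent.McLU43.Data
import Cfsg.Agent.McLU43.Code

/-!
Kernel checks for the point stabiliser of the McLaughlin group and its isomorphism with PSU(4, 3).
-/

set_option autoImplicit false
set_option maxRecDepth 100000
set_option Elab.async false

namespace CfsgLib.McLU43

open CfsgLib.McLFus

/-- An element of the program of the stabiliser. -/
def hN' (i : ℕ) : ℕ := eltsH.getD i 0

/-- An element of the program of the group. -/
def gN (i : ℕ) : ℕ := eltsG.getD i 0

/-- A spanning tree of an orbit. -/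
def orbTreeH : List (ℕ × ℕ × ℕ) → List ℕ → ℕ → Bool
  | [], _, _ => true
  | (g, p, q) :: r, gs, seen =>
    gs.elem g && seen.testBit p && !seen.testBit q && tabN (hN' g) p == q && orbTreeH r gs (seen ||| 1 <<< q)

/-- Check of a chain. -/
def levOkH : List (ℕ × List ℕ × List (ℕ × ℕ × ℕ)) → List ℕ → Bool
  | [], _ => true
  | (x, gs, tr) :: rest, pre =>
    decide (x < 275) && (gs.all fun g => decide (g < eltsH.length) && pre.all fun q => tabN (hN' g) q == q) &&
    orbTreeH tr gs (1 <<< x) && levOkH rest (x :: pre)

/-- A row of the adjacency. -/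
def rowN (u : ℕ) : ℕ := (rows.getD (u / 20) []).getD (u % 20) 0

theorem adjN_row (u v : ℕ) : adjN u v = (rowN u).testBit v := rfl

/-- The clique spanned by an edge among the neighbours of the first point. -/
def clK (a b : ℕ) : ℕ := (2 ^ a ||| 2 ^ b) ||| (rowN a &&& rowN b &&& rowN 0)

/-- An edge among the neighbours of the first point. -/
def edgeOk (a b : ℕ) : Bool := adjN 0 a && adjN 0 b && adjN a b

/-- A clique. -/
def clN (j : ℕ) : ℕ := cliques.getD j 0

/-- A vector of the point attached to a clique. -/
def ptV (j : ℕ) : V4 := decV (ptCodes.getD j 0)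

/-- The image of a clique. -/
def imgP (k j : ℕ) : ℕ := (permP.getD k []).getD j 0

/-- A generator. -/
def gGen (k : ℕ) : ℕ := gN (if k == 0 then g1Id else g2Id)

/-- The entries of a matrix. -/
def matN (k : ℕ) : M4 :=
  let l := matsP.getD k []
  let r := fun i => (l.getD (4 * i) 0, l.getD (4 * i + 1) 0, l.getD (4 * i + 2) 0, l.getD (4 * i + 3) 0)
  (r 0, r 1, r 2, r 3)

/-- The inverse of a code. -/
def invC (x : ℕ) : ℕ := ((List.range 9).find? fun y => mulC x y == 1).getD 0

/-- The normalised multiple of a vector. -/
def normV (v : V4) : V4 :=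
  smulV (invC (if v.1 != 0 then v.1 else if v.2.1 != 0 then v.2.1 else if v.2.2.1 != 0 then v.2.2.1 else v.2.2.2)) v

/-- The index of a point. -/
def idxV (v : V4) : ℕ := (ptTab.getD (encV v / 81) []).getD (encV v % 81) 0

/-- Every point has an index. -/
def ptsAll : Bool :=
  allLt 6561 fun n => n == 0 || hermC (decV n) (decV n) != 0 ||
    (decide (idxV (normV (decV n)) < 280) &&
      (List.range 9).any fun c => encV (smulV c (ptV (idxV (normV (decV n))))) == n)

theorem chk_progG : slpOk eltsG stepsG pA pZ = true := by decide +kernel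

theorem chk_idsG : g1Id < eltsG.length ∧ g2Id < eltsG.length ∧ tabN (gN g1Id) 0 = 0 ∧ tabN (gN g2Id) 0 = 0 := by
  decide +kernel

theorem chk_progH : slpOk eltsH stepsH (gN g1Id) (gN g2Id) = true := by decide +kernel

theorem chk_levH : levOkH levelsH [] = true ∧ (levelsH.map fun l => l.2.2.length + 1).prod = 3265920 := by
  decide +kernel

theorem chk_nbs : (allLt 275 fun x => adjN 0 x == nbs.elem x) = true ∧ (nbs.all fun x => decide (x < 275)) = true ∧
    nbs.length = 112 := by decide +kernel

theorem chk_sepN : ordN.length = 275 ∧ (ordN.all fun k => decide (k < 275)) = true ∧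
    incrN (ordN.map (sigN nbs)) = true := by decide +kernel

theorem chk_cliques : cliques.length = 280 ∧ incrN cliques = true ∧
    (allLt 280 fun j => decide ((edges.getD j (0, 0)).1 < 275) && decide ((edges.getD j (0, 0)).2 < 275) &&
      edgeOk (edges.getD j (0, 0)).1 (edges.getD j (0, 0)).2 &&
      clK (edges.getD j (0, 0)).1 (edges.getD j (0, 0)).2 == clN j) = true := by decide +kernel

theorem chk_edges : (allLt 275 fun a => !adjN 0 a || allLt 275 fun b => !edgeOk a b ||
    (thru.getD a []).any fun j => decide (j < 280) && clN j == clK a b) = true := by decide +kernel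

theorem chk_meets : (allLt 112 fun i => decide ((meets.getD i (0, 0)).1 < 280) &&
    decide ((meets.getD i (0, 0)).2 < 280) &&
    clN (meets.getD i (0, 0)).1 &&& clN (meets.getD i (0, 0)).2 == 2 ^ nbs.getD i 0) = true := by decide +kernel

theorem chk_imgs : (allLt 2 fun k => allLt 280 fun j => decide (imgP k j < 280) &&
    clN (imgP k j) == clK (tabN (gGen k) (edges.getD j (0, 0)).1) (tabN (gGen k) (edges.getD j (0, 0)).2)) = true := by
  decide +kernel

theorem chk_ptV : (allLt 280 fun j => ptV j != (0, 0, 0, 0) && hermC (ptV j) (ptV j) == 0 &&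
    (List.range 9).all fun c => c == 0 || (normV (smulV c (ptV j)) == ptV j && idxV (normV (smulV c (ptV j))) == j)) = true := by
  decide +kernel

theorem chk_mats : (allLt 2 fun k => isSU (matN k) && allLt 280 fun j =>
    (List.range 9).any fun c => mvC (matN k) (ptV j) == smulV c (ptV (imgP k j))) = true := by decide +kernel

theorem chk_ptsAll : ptsAll = true := by decide +kernel

end CfsgLib.McLU43
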