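import Cfsg.Agent.McLFus.Cent
import Cfsg.Agent.McLU43.Check
import Cfsg.Agent.Leech.McLRank

/-!
The stabiliser of a point of the McLaughlin group as a permutation group on 280 cliques.
-/

set_option autoImplicit false
set_option maxRecDepth 100000

namespace CfsgLib.McLU43

open CfsgLib.McLFus CfsgLib.LeechOut CfsgLib.Leech.Co3Mult CfsgLib.Golay Equiv MulAction

/-- The first point. -/
def pt0 : Fin 275 := 0

/-- The stabiliser of the first point. -/
noncomputable def Hs : Subgroup gP := stabilizer gP pt0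

theorem mem_Hs {g : gP} : g ∈ Hs ↔ (g : Perm (Fin 275)) pt0 = pt0 := Iff.rfl

theorem gN_ex {i : ℕ} (hi : i < eltsG.length) : ∃ σ : gP, Rep (gN i) (σ : Perm (Fin 275)) := by
  obtain ⟨σ, -, h⟩ := slp_mem chk_progG ⊤ ⟨⟨_, McL.cert.el 0, rfl⟩, trivial, rep_el0⟩
    ⟨⟨_, McL.cert.el 2, rfl⟩, trivial, rep_el2⟩ i hi
  exact ⟨σ, h⟩

theorem gGen_ex (k : Fin 2) : ∃ σ : gP, σ ∈ Hs ∧ Rep (gGen k.val) (σ : Perm (Fin 275)) := by
  obtain ⟨h1, h2, h3, h4⟩ := chk_idsG
  fin_cases k
  · obtain ⟨σ, hσ⟩ := gN_ex h1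
    exact ⟨σ, mem_Hs.2 (Fin.ext (by rw [hσ]; exact h3)), hσ⟩
  · obtain ⟨σ, hσ⟩ := gN_ex h2
    exact ⟨σ, mem_Hs.2 (Fin.ext (by rw [hσ]; exact h4)), hσ⟩

/-- The generators of the stabiliser. -/
noncomputable def hgen (k : Fin 2) : Hs := ⟨(gGen_ex k).choose, (gGen_ex k).choose_spec.1⟩

theorem hgen_rep (k : Fin 2) : Rep (gGen k.val) ((hgen k : gP) : Perm (Fin 275)) := (gGen_ex k).choose_spec.2

/-! ### The order of the stabiliser -/

theorem tree_card (H : Subgroup (Perm (Fin 275))) (x : Fin 275) (gs : List ℕ)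
    (hgs : ∀ g ∈ gs, ∃ σ ∈ H, Rep (hN' g) σ) :
    ∀ (tr : List (ℕ × ℕ × ℕ)) (seen : ℕ) (T : Finset (Fin 275)), orbTreeH tr gs seen = true →
      (∀ i, seen.testBit i = true ↔ ∃ t ∈ T, t.val = i) → (↑T ⊆ MulAction.orbit H x) →
      T.card + tr.length ≤ (MulAction.orbit H x).ncard
  | [], _, T, _, _, hsub => by
    rw [List.length_nil, Nat.add_zero, ← Set.ncard_coe_finset]
    exact Set.ncard_le_ncard hsub
  | (g, p, q) :: r, seen, T, hok, hbit, hsub => by
    simp only [orbTreeH, Bool.and_eq_true, Bool.not_eq_true', beq_iff_eq, List.elem_iff] at hok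
    obtain ⟨⟨⟨⟨hg, hp⟩, hq⟩, himg⟩, hrest⟩ := hok
    obtain ⟨t, ht, rfl⟩ := (hbit p).1 hp
    obtain ⟨σ, hσ, hr⟩ := hgs g hg
    have hv : (σ t).val = q := by rw [hr]; exact himg
    have hnew : σ t ∉ T := fun hm => by
      have := (hbit q).2 ⟨_, hm, hv⟩
      simp [hq] at this
    classical
    have := tree_card H x gs hgs r (seen ||| 1 <<< q) (insert (σ t) T) hrest (fun i => ?_) ?_
    · rw [Finset.card_insert_of_notMem hnew] at this
      rw [List.length_cons]
      omega
    · rw [Nat.testBit_lor, Nat.one_shiftLeft, Nat.testBit_two_pow, Bool.or_eq_true, decide_eq_true_eq, hbit]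
      constructor
      · rintro (⟨s, hs, e⟩ | e)
        · exact ⟨s, Finset.mem_insert_of_mem hs, e⟩
        · exact ⟨σ t, Finset.mem_insert_self _ _, hv.trans e⟩
      · rintro ⟨s, hs, e⟩
        rcases Finset.mem_insert.1 hs with rfl | hs
        · exact Or.inr (hv.symm.trans e)
        · exact Or.inl ⟨s, hs, e⟩
    · rw [Finset.coe_insert]
      refine Set.insert_subset_iff.2 ⟨?_, hsub⟩
      exact MulAction.mem_orbit_of_mem_orbit (⟨σ, hσ⟩ : H) (hsub ht)

theorem card_ge_H : ∀ (lv : List (ℕ × List ℕ × List (ℕ × ℕ × ℕ))) (pre : List ℕ) (H : Subgroup (Perm (Fin 275))),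
    levOkH lv pre = true →
    (∀ i < eltsH.length, (∀ q ∈ pre, tabN (hN' i) q = q) → ∃ σ ∈ H, Rep (hN' i) σ) →
    (lv.map fun l => l.2.2.length + 1).prod ≤ Nat.card H
  | [], _, H, _, _ => by rw [List.map_nil, List.prod_nil]; exact Nat.card_pos
  | (x, gs, tr) :: rest, pre, H, hok, hmem => by
    simp only [levOkH, Bool.and_eq_true, decide_eq_true_eq, List.all_eq_true, beq_iff_eq] at hok
    obtain ⟨⟨⟨hx, hg⟩, htr⟩, hrest⟩ := hok
    rw [List.map_cons, List.prod_cons, card_CAut_le.card_eq_orbit (H := H) (x := ⟨x, hx⟩)]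
    refine Nat.mul_le_mul ?_ (card_ge_H rest (x :: pre) _ hrest fun i hi hfix => ?_)
    · have h := tree_card H ⟨x, hx⟩ gs (fun g hgm => hmem g (hg g hgm).1 (hg g hgm).2) tr (1 <<< x) {⟨x, hx⟩}
        htr (fun i => ?_) ?_
      · rw [Finset.card_singleton] at h
        show tr.length + 1 ≤ _
        omega
      · rw [Nat.one_shiftLeft, Nat.testBit_two_pow]
        simp
      · rw [Finset.coe_singleton, Set.singleton_subset_iff]
        exact MulAction.mem_orbit_self _
    · obtain ⟨σ, hσ, hr⟩ := hmem i hi fun q hq => hfix q (List.mem_cons_of_mem _ hq)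
      refine ⟨σ, ⟨hσ, Fin.ext ?_⟩, hr⟩
      show (σ ⟨x, hx⟩).val = x
      rw [hr]; exact hfix x List.mem_cons_self

theorem card_closure_ge : 3265920 ≤ Nat.card (Subgroup.closure (Set.range hgen)) := by
  let H0 : Subgroup gP := Subgroup.closure ({(hgen 0 : gP), (hgen 1 : gP)} : Set gP)
  have hle : H0 = (Subgroup.closure (Set.range hgen)).map Hs.subtype := by
    rw [MonoidHom.map_closure, ← Set.range_comp]
    refine congrArg Subgroup.closure (Set.ext fun x => ?_)
    simp [Fin.exists_fin_two, eq_comm]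
  rw [Nat.card_congr (Subgroup.equivMapOfInjective _ _ Hs.subtype_injective).toEquiv, ← hle,
    ← chk_levH.2, Nat.card_congr (Subgroup.equivMapOfInjective H0 _ gP.subtype_injective).toEquiv]
  refine card_ge_H levelsH [] _ chk_levH.1 fun i hi _ => ?_
  obtain ⟨σ, hσ, hr⟩ := slp_mem chk_progH H0
    ⟨hgen 0, Subgroup.subset_closure (by simp), hgen_rep 0⟩
    ⟨hgen 1, Subgroup.subset_closure (by simp), hgen_rep 1⟩ i hi
  exact ⟨_, ⟨σ, hσ, rfl⟩, hr⟩

theorem pt_checks : ∀ i : Fin 275, Cfsg.sqNorm (Val (McL.cert.pt i.val)) = 32 ∧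
    Cfsg.dotInt (Leech.vecOf Leech.McL.uList) (Val (McL.cert.pt i.val)) = 24 ∧
    Val (McL.cert.pt i.val) none + Val (McL.cert.pt i.val) (some 0) = 4 := by decide +kernel

theorem isPt (i : Fin 275) : Leech.McL.IsPt (McL.cert.P i.val) := by
  obtain ⟨h1, h2, h3⟩ := pt_checks i
  have e := (pts_spec McL.ok (chk_np.1.symm ▸ i.isLt : i.val < McL.cert.np)).2.1
  unfold Leech.McL.IsPt
  rw [e]
  exact ⟨h1, h2, h3⟩

theorem transitive (i : Fin 275) : ∃ g : gP, (g : Perm (Fin 275)) pt0 = i := by
  obtain ⟨k, hk, e⟩ := Leech.McL.transitive_pts (isPt pt0) (isPt i)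
  let c : McL.cert.Grp := ⟨k, McL.grp_eq.symm ▸ hk⟩
  refine ⟨⟨rho c, c, rfl⟩, Fin.ext (P_inj McL.ok (chk_np.1.symm ▸ (rho c pt0).isLt) (chk_np.1.symm ▸ i.isLt) ?_)⟩
  exact (rho_spec c pt0).symm.trans e

instance : Finite gP := Finite.of_injective _ Subtype.val_injective

theorem card_Hs : Nat.card Hs = 3265920 := by
  haveI : IsPretransitive gP (Fin 275) := (isPretransitive_iff_base pt0).2 fun i => transitive i
  show Nat.card (stabilizer gP pt0) = _
  have h := (stabilizer gP pt0).card_mul_index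
  rw [card_gP, index_stabilizer_of_transitive gP pt0, Nat.card_fin] at h
  omega

theorem closure_hgen : Subgroup.closure (Set.range hgen) = ⊤ :=
  Subgroup.eq_top_of_card_eq _ (le_antisymm (Subgroup.card_le_card_group _) (card_Hs ▸ card_closure_ge))

/-! ### The action on the cliques -/

theorem testBit_clK (a b x : ℕ) : (clK a b).testBit x =
    ((a == x || b == x) || ((adjN a x && adjN b x) && adjN 0 x)) := by
  have hb : ∀ u v : ℕ, decide (u = v) = (u == v) := fun u v => by
    by_cases h : u = v <;> simp [h]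
  simp only [clK, Nat.testBit_lor, Nat.testBit_land, Nat.testBit_two_pow, adjN_row, hb]

theorem edge_of (j : Fin 280) : ∃ a b : Fin 275, edgeOk a.val b.val = true ∧ clK a.val b.val = clN j.val ∧
    edges.getD j.val (0, 0) = (a.val, b.val) := by
  have h := allLt_spec chk_cliques.2.2 j.isLt
  simp only [Bool.and_eq_true, decide_eq_true_eq, beq_iff_eq] at h
  exact ⟨⟨_, h.1.1.1⟩, ⟨_, h.1.1.2⟩, h.1.2, h.2, rfl⟩

theorem clique_lt : ∀ j : Fin 280, clN j.val < 2 ^ 275 := by decide +kernel

theorem clN_inj {i j : Fin 280} (h : clN i.val = clN j.val) : i = j := by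
  have hp := incrN_pairwise chk_cliques.2.1
  rw [List.pairwise_iff_getElem] at hp
  have hl : ∀ k : Fin 280, k.val < cliques.length := fun k => chk_cliques.1.symm ▸ k.isLt
  have hg : ∀ k : Fin 280, clN k.val = cliques[k.val]'(hl k) := fun k => List.getD_eq_getElem _ _ (hl k)
  rcases lt_trichotomy i.val j.val with hlt | heq | hgt
  · have := hp _ _ (hl i) (hl j) hlt
    rw [← hg, ← hg, h] at this; omega
  · exact Fin.ext heq
  · have := hp _ _ (hl j) (hl i) hgt
    rw [← hg, ← hg, h] at this; omega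

/-- The image of a clique. -/
def Img (h : Hs) (j j' : Fin 280) : Prop :=
  ∀ x : Fin 275, (clN j'.val).testBit (((h : gP) : Perm (Fin 275)) x).val = (clN j.val).testBit x.val

theorem img_unique {h : Hs} {j j' j'' : Fin 280} (h1 : Img h j j') (h2 : Img h j j'') : j' = j'' := by
  refine clN_inj (Nat.eq_of_testBit_eq fun y => ?_)
  by_cases hy : y < 275
  · obtain ⟨x, hx⟩ := ((h : gP) : Perm (Fin 275)).surjective ⟨y, hy⟩
    have e := congrArg Fin.val hx
    simp only at e
    rw [← e, h1, h2]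
  · rw [Nat.testBit_lt_two_pow ((clique_lt j').trans_le (Nat.pow_le_pow_right (by norm_num) (by omega))),
      Nat.testBit_lt_two_pow ((clique_lt j'').trans_le (Nat.pow_le_pow_right (by norm_num) (by omega)))]

theorem img_of_edge (h : Hs) (j j' : Fin 280) (a b : Fin 275) (hj : clK a.val b.val = clN j.val)
    (hj' : clN j'.val = clK (((h : gP) : Perm (Fin 275)) a).val (((h : gP) : Perm (Fin 275)) b).val) :
    Img h j j' := by
  intro x
  have hA := gP_le (h : gP).2
  have h0 : ((h : gP) : Perm (Fin 275)) pt0 = pt0 := mem_Hs.1 h.2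
  set σ := ((h : gP) : Perm (Fin 275))
  have e0 : adjN 0 (σ x).val = adjN 0 x.val := by
    have := hA pt0 x
    rw [h0] at this
    exact this
  have eb : ∀ u : Fin 275, ((σ u).val == (σ x).val) = (u.val == x.val) := fun u => by
    rw [Bool.eq_iff_iff, beq_iff_eq, beq_iff_eq, Fin.val_inj, Fin.val_inj, σ.injective.eq_iff]
  rw [hj', ← hj, testBit_clK, testBit_clK, e0, hA a x, hA b x, eb, eb]

theorem exists_img (h : Hs) (j : Fin 280) : ∃ j', Img h j j' := by
  obtain ⟨a, b, he, hj, -⟩ := edge_of j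
  have hA := gP_le (h : gP).2
  have h0 : ((h : gP) : Perm (Fin 275)) pt0 = pt0 := mem_Hs.1 h.2
  set σ := ((h : gP) : Perm (Fin 275))
  simp only [edgeOk, Bool.and_eq_true] at he
  have e0 : ∀ u : Fin 275, adjN 0 (σ u).val = adjN 0 u.val := fun u => by
    have := hA pt0 u
    rw [h0] at this
    exact this
  have he' : edgeOk (σ a).val (σ b).val = true := by
    simp only [edgeOk, Bool.and_eq_true, e0, hA a b]
    exact he
  have h1 := allLt_spec chk_edges (σ a).isLt
  simp only [Bool.or_eq_true, Bool.not_eq_true', e0, he.1.1, Bool.true_eq_false, false_or] at h1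
  have h2 := allLt_spec h1 (σ b).isLt
  simp only [he', Bool.not_true, Bool.false_or, List.any_eq_true, Bool.and_eq_true, decide_eq_true_eq, beq_iff_eq] at h2
  obtain ⟨k, -, hk, hk'⟩ := h2
  exact ⟨⟨k, hk⟩, img_of_edge h j ⟨k, hk⟩ a b hj hk'⟩

/-- The action on the cliques. -/
noncomputable def psi : Hs →* Perm (Fin 280) :=
  MonoidHom.toHomPerm
    { toFun := fun h => (fun j => (exists_img h j).choose : Function.End (Fin 280))
      map_one' := funext fun j => img_unique (exists_img 1 j).choose_spec (fun _ => rfl)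
      map_mul' := fun g h => funext fun j => img_unique (exists_img (g * h) j).choose_spec fun x => by
        show (clN (exists_img g (exists_img h j).choose).choose.val).testBit _ = _
        exact ((exists_img g (exists_img h j).choose).choose_spec _).trans ((exists_img h j).choose_spec x) }

theorem psi_spec (h : Hs) (j : Fin 280) : Img h j (psi h j) := (exists_img h j).choose_spec

theorem psi_hgen (k : Fin 2) (j : Fin 280) : (psi (hgen k) j).val = imgP k.val j.val := by
  obtain ⟨a, b, -, hj, he⟩ := edge_of j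
  have h := allLt_spec (allLt_spec chk_imgs k.isLt) j.isLt
  simp only [Bool.and_eq_true, decide_eq_true_eq, beq_iff_eq, he] at h
  have hr := hgen_rep k
  rw [img_unique (psi_spec (hgen k) j) (img_of_edge (hgen k) j ⟨_, h.1⟩ a b hj (by rw [hr a, hr b]; exact h.2))]

theorem psi_injective : Function.Injective psi := by
  refine (injective_iff_map_eq_one psi).2 fun h hh => ?_
  set σ := ((h : gP) : Perm (Fin 275)) with hσ
  have hfix : ∀ j : Fin 280, ∀ x : Fin 275, (clN j.val).testBit (σ x).val = (clN j.val).testBit x.val := by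
    intro j x
    have := psi_spec h j x
    rw [hh] at this
    exact this
  have hnb : ∀ u ∈ nbs, ∃ w : Fin 275, w.val = u ∧ σ w = w := by
    intro u hu
    obtain ⟨i, hi, rfl⟩ := List.mem_iff_getElem.1 hu
    have hlt : nbs[i] < 275 := of_decide_eq_true (List.all_eq_true.1 chk_nbs.2.1 _ hu)
    have h1 := allLt_spec chk_meets (show i < 112 by rw [← chk_nbs.2.2]; exact hi)
    simp only [Bool.and_eq_true, decide_eq_true_eq, beq_iff_eq] at h1
    obtain ⟨⟨ha, hb⟩, he⟩ := h1
    have hm : ∀ y : Fin 275, ((clN (meets.getD i (0, 0)).1).testBit y.val &&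
        (clN (meets.getD i (0, 0)).2).testBit y.val) = decide (nbs[i] = y.val) := fun y => by
      rw [← Nat.testBit_land, he, Nat.testBit_two_pow, List.getD_eq_getElem _ _ hi]
    refine ⟨⟨_, hlt⟩, rfl, Fin.ext ?_⟩
    have h2 := hm (σ ⟨_, hlt⟩)
    rw [hfix ⟨_, ha⟩, hfix ⟨_, hb⟩, hm, decide_eq_true rfl, eq_comm, decide_eq_true_eq] at h2
    exact h2.symm
  have hA := gP_le (h : gP).2
  have e : σ = 1 := by
    refine Equiv.ext fun v => sig_injective chk_sepN ?_
    have key : ∀ l : List ℕ, (∀ u ∈ l, ∃ w : Fin 275, w.val = u ∧ σ w = w) →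
        sigN l (σ v).val = sigN l v.val := by
      intro l
      induction l with
      | nil => exact fun _ => rfl
      | cons u l ih =>
        intro hl
        obtain ⟨w, rfl, hw⟩ := hl u List.mem_cons_self
        have h1 : adjN w.val (σ v).val = adjN w.val v.val := by conv_lhs => rw [← hw]; exact hA w v
        have h2 : (w.val == (σ v).val) = (w.val == v.val) := by
          rw [Bool.eq_iff_iff, beq_iff_eq, beq_iff_eq, Fin.val_inj, Fin.val_inj]
          conv_lhs => rw [← hw]
          exact σ.injective.eq_iff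
        show (_ + _) + 4 * sigN l (σ v).val = _
        rw [h1, h2, ih fun x hx => hl x (List.mem_cons_of_mem _ hx)]
        rfl
    exact key nbs hnb
  exact Subtype.ext (Subtype.ext e)

end CfsgLib.McLU43
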