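import Cfsg.Agent.UGeom.Simple
import Cfsg.Agent.UGeom.Center
import Cfsg.Agent.McLU43.Stab

/-!
The point stabiliser of the McLaughlin group is the four-dimensional unitary group over nine elements.
-/

set_option autoImplicit false
set_option maxRecDepth 100000

namespace CfsgLib.McLU43

open Matrix CfsgLib.McLFus CfsgLib.UGeom
open Equiv (Perm)
open MulAction (toPermHom)

variable {F : Type} [Field F] [Fintype F]

theorem ptV_spec (j : Fin 280) : ptV j.val ≠ (0, 0, 0, 0) ∧ hermC (ptV j.val) (ptV j.val) = 0 ∧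
    ∀ c < 9, c ≠ 0 → idxV (normV (smulV c (ptV j.val))) = j.val := by
  have h := allLt_spec chk_ptV j.isLt
  simp only [Bool.and_eq_true, List.all_eq_true, List.mem_range, Bool.or_eq_true, beq_iff_eq, bne_iff_ne] at h
  exact ⟨h.1.1, h.1.2, fun c hc h0 => ((h.2 c hc).resolve_left h0).2⟩

theorem okV_ptV (j : ℕ) : okV (ptV j) = true := by
  simp only [ptV, decV, okV, Bool.and_eq_true]
  exact ⟨⟨⟨decide_eq_true (by omega), decide_eq_true (by omega)⟩, decide_eq_true (by omega)⟩,
    decide_eq_true (by omega)⟩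

theorem φv_zero (R : Root F) : φv R (0, 0, 0, 0) = 0 := by
  funext i; fin_cases i <;> simp [φv, φ_zero]

theorem okV_smulV (c : ℕ) (v : V4) : okV (smulV c v) = true := by
  simp only [smulV, mulC, okV, Bool.and_eq_true]
  exact ⟨⟨⟨decide_eq_true (by omega), decide_eq_true (by omega)⟩, decide_eq_true (by omega)⟩,
    decide_eq_true (by omega)⟩

theorem φv_ne (R : Root F) (j : Fin 280) : φv R (ptV j.val) ≠ 0 := fun h =>
  (ptV_spec j).1 (φv_inj R (okV_ptV _) rfl (h.trans (φv_zero R).symm))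

theorem φv_iso (R : Root F) (j : Fin 280) :
    Cfsg.hermForm 4 F 3 (φv R (ptV j.val)) (φv R (ptV j.val)) = 0 := by
  rw [← φ_hermC, (ptV_spec j).2.1, φ_zero]

variable (R : Root F) (C : Conj F 3)

/-- The isotropic point of an index. -/
noncomputable def isoOf (j : Fin 280) : Iso 4 F 3 := isoPt C (φv_ne R j) (φv_iso R j)

theorem isoOf_bijective : Function.Bijective (isoOf R C) := by
  constructor
  · intro i j h
    obtain ⟨a, ha⟩ := (isoPt_eq_iff C _ _ _ _).1 h
    obtain ⟨c, hc, rfl⟩ := φ_surj R a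
    have hc0 : c ≠ 0 := by
      rintro rfl
      rw [φ_zero, zero_smul] at ha
      exact φv_ne R i ha.symm
    rw [← φv_smulV] at ha
    have e := φv_inj R (okV_smulV _ _) (okV_ptV _) ha
    have hi := (ptV_spec i).2.2 1 (by norm_num) one_ne_zero
    have hj := (ptV_spec j).2.2 c hc hc0
    rw [e] at hj
    have h1 : smulV 1 (ptV i.val) = ptV i.val := by
      refine φv_inj R (okV_smulV _ _) (okV_ptV _) ?_
      rw [φv_smulV, φ_one, one_smul]
    rw [h1] at hi
    exact Fin.ext (hi.symm.trans hj)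
  · intro p
    obtain ⟨v, hv, hvv, rfl⟩ := iso_cases C p
    obtain ⟨w, hw, rfl⟩ := φv_surj R v
    obtain ⟨hlt, hdec⟩ := decV_encV hw
    have h := allLt_spec chk_ptsAll hlt
    simp only [Bool.and_eq_true, Bool.or_eq_true, decide_eq_true_eq, List.any_eq_true, List.mem_range,
      beq_iff_eq, bne_iff_ne, hdec] at h
    rcases h with (h | h) | ⟨h, c, -, hc⟩
    · exfalso
      refine hv ?_
      rw [← hdec, h, show decV 0 = (0, 0, 0, 0) from rfl, φv_zero]
    · exfalso
      have h9 : hermC w w < 9 := by simp only [hermC, dotC, addC]; omega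
      exact h (φ_inj R h9 (by norm_num) (by rw [φ_hermC, hvv, φ_zero]))
    · refine ⟨⟨_, h⟩, ((isoPt_eq_iff C _ _ _ _).2 ⟨φ R c, ?_⟩).symm⟩
      rw [← φv_smulV]
      exact congrArg (φv R) ((decV_encV (okV_smulV _ _)).2.symm.trans ((congrArg decV hc).trans hdec))

theorem card_PSU43 (C : Conj F 3) : Nat.card (Cfsg.PSU 4 F 3) = 3265920 := by
  have h := card_PSU C (n := 4) (by norm_num)
  norm_num [Finset.prod_range_succ, Nat.even_iff] at h
  omega

theorem nonempty_equiv (R : Root F) : Nonempty (Hs ≃* Cfsg.PSU 4 F 3) := by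
  obtain ⟨C⟩ := UGeom.nonempty_conj (F := F) (q := 3) (by rw [R.card]; norm_num)
  haveI : Fact (Nonempty (Conj F 3)) := ⟨⟨C⟩⟩
  have hker : Subgroup.center (Cfsg.SU 4 F 3) ≤ (toPermHom (Cfsg.SU 4 F 3) (Iso 4 F 3)).ker := fun A hA =>
    MonoidHom.mem_ker.2 (Equiv.ext fun p => fix_of_mem_center C (by norm_num) A hA p)
  let ρ : Cfsg.PSU 4 F 3 →* Perm (Iso 4 F 3) := QuotientGroup.lift _ _ hker
  have hρ : Function.Injective ρ := by
    refine (injective_iff_map_eq_one ρ).2 fun x hx => ?_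
    obtain ⟨A, rfl⟩ := QuotientGroup.mk_surjective x
    exact (QuotientGroup.eq_one_iff A).2 (mem_center_of_fix C (by norm_num) A fun p =>
      (Perm.ext_iff.1 hx p))
  let e : Fin 280 ≃ Iso 4 F 3 := Equiv.ofBijective _ (isoOf_bijective R C)
  let τ : Hs →* Perm (Iso 4 F 3) := e.permCongrHom.toMonoidHom.comp psi
  have hτ : Function.Injective τ := e.permCongrHom.injective.comp psi_injective
  have hle : τ.range ≤ ρ.range := by
    rw [MonoidHom.range_eq_map, ← closure_hgen, MonoidHom.map_closure, Subgroup.closure_le]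
    rintro _ ⟨_, ⟨k, rfl⟩, rfl⟩
    have h := allLt_spec chk_mats k.isLt
    simp only [Bool.and_eq_true] at h
    obtain ⟨g, hg⟩ := φm_SU R h.1
    refine ⟨QuotientGroup.mk g, Equiv.ext fun p => ?_⟩
    obtain ⟨j, rfl⟩ := e.surjective p
    show g • e j = e (psi (hgen k) (e.symm (e j)))
    rw [Equiv.symm_apply_apply]
    show g • isoOf R C j = isoOf R C (psi (hgen k) j)
    rw [isoOf, smul_isoPt, isoOf, isoPt_eq_iff]
    have h2 := allLt_spec h.2 j.isLt
    simp only [List.any_eq_true, beq_iff_eq, List.mem_range] at h2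
    obtain ⟨c, -, hc⟩ := h2
    exact ⟨φ R c, by rw [hg, ← φv_mvC, hc, φv_smulV, psi_hgen]⟩
  have hcard : Nat.card τ.range = Nat.card ρ.range := by
    rw [← Nat.card_congr (MonoidHom.ofInjective hτ).toEquiv, ← Nat.card_congr (MonoidHom.ofInjective hρ).toEquiv,
      card_Hs, card_PSU43 C]
  haveI : Finite (Cfsg.PSU 4 F 3) := Nat.finite_of_card_ne_zero (by rw [card_PSU43 C]; norm_num)
  haveI : Finite ρ.range := Finite.of_equiv _ (MonoidHom.ofInjective hρ).toEquiv
  have heq := Subgroup.eq_of_le_of_card_ge hle hcard.ge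
  exact ⟨((MonoidHom.ofInjective hτ).trans (MulEquiv.subgroupCongr heq)).trans (MonoidHom.ofInjective hρ).symm⟩

end CfsgLib.McLU43
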