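import Cfsg.Agent.McLU43.Iso

/-!
The triple stabiliser in the automorphism group of the Leech lattice is the unitary group.
-/

set_option autoImplicit false
set_option maxRecDepth 100000

namespace CfsgLib.McLU43

open Cfsg CfsgLib.McLFus CfsgLib.LeechOut CfsgLib.Leech MulAction
open Equiv (Perm)

/-- The stabiliser of three vectors. -/
noncomputable abbrev St3 (u v x : ↥leechLattice) : Subgroup ↥Co0 :=
  stabilizer ↥Co0 u ⊓ stabilizer ↥Co0 v ⊓ stabilizer ↥Co0 x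

theorem mem_St3 {u v x : ↥leechLattice} {g : ↥Co0} : g ∈ St3 u v x ↔ (g • u = u ∧ g • v = v) ∧ g • x = x := by
  simp [St3, Subgroup.mem_inf, mem_stabilizer_iff]

theorem conj_mem {u v x u' v' x' : ↥leechLattice} {g h : ↥Co0} (hu : g • u = u') (hv : g • v = v')
    (hx : g • x = x') (hh : h ∈ St3 u v x) : g * h * g⁻¹ ∈ St3 u' v' x' := by
  obtain ⟨⟨a, b⟩, c⟩ := mem_St3.1 hh
  have key : ∀ {w w' : ↥leechLattice}, g • w = w' → h • w = w → (g * h * g⁻¹) • w' = w' := fun e1 e2 => by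
    rw [mul_smul, mul_smul, ← e1, inv_smul_smul, e2]
  exact mem_St3.2 ⟨⟨key hu a, key hv b⟩, key hx c⟩

/-- Conjugate triples have isomorphic stabilisers. -/
noncomputable def conjSt3 {u v x u' v' x' : ↥leechLattice} (g : ↥Co0) (hu : g • u = u') (hv : g • v = v')
    (hx : g • x = x') : St3 u v x ≃* St3 u' v' x' where
  toFun h := ⟨g * h * g⁻¹, conj_mem hu hv hx h.2⟩
  invFun k := ⟨g⁻¹ * k * g, by
    have := conj_mem (g := g⁻¹) (eq_inv_smul_iff.2 hu).symm (eq_inv_smul_iff.2 hv).symm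
      (eq_inv_smul_iff.2 hx).symm k.2
    rwa [inv_inv] at this⟩
  left_inv h := Subtype.ext (by simp [mul_assoc])
  right_inv k := Subtype.ext (by simp [mul_assoc])
  map_mul' a b := Subtype.ext (by simp [mul_assoc])

theorem std_equiv : Nonempty (St3 Leech.McL.U0 vStd (LeechOut.McL.cert.P pt0.val) ≃* Hs) := by
  have hin : ∀ g : St3 Leech.McL.U0 vStd (LeechOut.McL.cert.P pt0.val), (g : ↥Co0) ∈ LeechOut.McL.cert.Grp :=
    fun g => by rw [LeechOut.McL.grp_eq]; exact (Subgroup.mem_inf.1 g.2).1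
  have hlt : ∀ i : Fin 275, i.val < LeechOut.McL.cert.np := fun i => chk_np.1.symm ▸ i.isLt
  have hfix : ∀ c : LeechOut.McL.cert.Grp, rho c pt0 = pt0 ↔
      (c : ↥Co0) • LeechOut.McL.cert.P pt0.val = LeechOut.McL.cert.P pt0.val := fun c => by
    rw [rho_spec]
    exact ⟨fun h => by rw [h], fun h => Fin.ext (P_inj LeechOut.McL.ok (hlt _) (hlt _) h)⟩
  let f : St3 Leech.McL.U0 vStd (LeechOut.McL.cert.P pt0.val) →* Hs :=
    MonoidHom.mk' (fun g => ⟨⟨rho ⟨g, hin g⟩, ⟨g, hin g⟩, rfl⟩,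
        mem_Hs.2 ((hfix _).2 (mem_St3.1 g.2).2)⟩)
      fun a b => Subtype.ext (Subtype.ext (map_mul rho ⟨a, hin a⟩ ⟨b, hin b⟩))
  refine ⟨MulEquiv.ofBijective f ⟨fun a b h => ?_, fun ⟨⟨σ, c, hc⟩, hσ⟩ => ?_⟩⟩
  · have := rho_injective (congrArg (fun z : Hs => ((z : gP) : Perm (Fin 275))) h)
    exact Subtype.ext (congrArg (fun z : LeechOut.McL.cert.Grp => (z : ↥Co0)) this)
  · have hK : (c : ↥Co0) ∈ Leech.McL.K := by rw [← LeechOut.McL.grp_eq]; exact c.2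
    subst hc
    exact ⟨⟨c, Subgroup.mem_inf.2 ⟨hK, mem_stabilizer_iff.2 ((hfix c).1 (mem_Hs.1 hσ))⟩⟩, rfl⟩

theorem main {u v x : ↥leechLattice} (hu : sqNorm u.1 = 48) (hv : sqNorm v.1 = 32 ∧ sqNorm (u.1 - v.1) = 32)
    (hx : sqNorm x.1 = 32 ∧ sqNorm (u.1 - x.1) = 32 ∧ dotInt v.1 x.1 = 16)
    (F : Type) [Field F] [Fintype F] (hF : Fintype.card F = 9) :
    Nonempty (St3 u v x ≃* PSU 4 F 3) := by
  obtain ⟨g0, gu0, gv0, hg0⟩ := Leech.McL.config hu hv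
  obtain ⟨k, hk, ek⟩ := Leech.McL.transitive_pts ((hg0 x).1 hx) (isPt pt0)
  have e := conjSt3 (k * g0) (u := u) (v := v) (x := x)
    (u' := Leech.McL.U0) (v' := vStd) (x' := LeechOut.McL.cert.P pt0.val)
    (by rw [mul_smul, gu0]; exact hk.1) (by rw [mul_smul, gv0]; exact hk.2) (by rw [mul_smul, ek])
  obtain ⟨e1⟩ := std_equiv
  obtain ⟨R⟩ := nonempty_root hF
  obtain ⟨e2⟩ := nonempty_equiv R
  exact ⟨(e.trans e1).trans e2⟩

end CfsgLib.McLU43
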